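import Mathlib
import Cfsg.Agent.Lib.Helper14.Spec.Defs
import Cfsg.Agent.Lib.Helper8.OFus.Defs

/-!
# S2362: the core assembly

`core_of`: from the packages, some power of an isometry of determinant one and order exactly
`p (q ^ d + 1)` in dimension `2 d + 3` is an even product of reflections with non-square spinor
norm.
-/

set_option autoImplicit false

namespace Cfsg.Agent.Lib.Helper14.Spec

open Module
open Cfsg.Agent.Lib.Helper14 (reflLin prod_refl_extend prod_refl_fix prod_refl_isometry)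

universe u

section aux

variable {F : Type*} [Field F] {V : Type*} [AddCommGroup V] [Module F V]

/-- Two linear maps agreeing on complementary subspaces are equal. -/
theorem eq_of_isCompl (W V₁ : Submodule F V) (h : IsCompl W V₁) (f g : V →ₗ[F] V)
    (hW : ∀ w ∈ W, f w = g w) (hV : ∀ v ∈ V₁, f v = g v) : f = g := by
  apply LinearMap.ext
  intro v
  have hv : v ∈ W ⊔ V₁ := by rw [h.sup_eq_top]; exact Submodule.mem_top
  obtain ⟨w, hw, v₁, hv₁, rfl⟩ := Submodule.mem_sup.mp hv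
  rw [map_add, map_add, hW w hw, hV v₁ hv₁]

theorem restrict_pow_apply (t : V →ₗ[F] V) (W : Submodule F V) (ht : ∀ w ∈ W, t w ∈ W)
    (k : ℕ) (w : W) : (((t.restrict ht) ^ k) w : V) = (t ^ k) (w : V) := by
  induction k generalizing w with
  | zero => simp
  | succ k ih =>
    rw [pow_succ, pow_succ, Module.End.mul_apply, Module.End.mul_apply, ih]
    rfl

theorem restrict_pow_eq_one_iff (t : V →ₗ[F] V) (W : Submodule F V) (ht : ∀ w ∈ W, t w ∈ W)
    (k : ℕ) : (t.restrict ht) ^ k = 1 ↔ ∀ w ∈ W, (t ^ k) w = w := by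
  constructor
  · intro h w hw
    have := restrict_pow_apply t W ht k ⟨w, hw⟩
    rw [h] at this
    exact this.symm
  · intro h
    apply LinearMap.ext
    intro w
    apply Subtype.ext
    rw [restrict_pow_apply, Module.End.one_apply]
    exact h w w.2

theorem pow_isom (Q : QuadraticForm F V) (A : V →ₗ[F] V) (hA : ∀ v, Q (A v) = Q v) (k : ℕ)
    (v : V) : Q ((A ^ k) v) = Q v := by
  induction k generalizing v with
  | zero => simp
  | succ k ih => rw [pow_succ, Module.End.mul_apply, ih, hA]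

theorem pow_comm_apply (A : V →ₗ[F] V) (a b : ℕ) (v : V) :
    (A ^ a) ((A ^ b) v) = (A ^ b) ((A ^ a) v) := by
  rw [← Module.End.mul_apply, ← Module.End.mul_apply, ← pow_add, ← pow_add, add_comm]

end aux

/-- The core assembly. -/
theorem core_of (hZ : PkgZsig) (hS : Struct.{u}) (hE : TorusExp.{u}) (hD : TorusDet.{u})
    (hC : TorusCyc.{u}) (hO : PkgO3.{u}) (hDS : PkgDetSum.{u})
    (hSd : Cfsg.Agent.Lib.Helper8.OFus.PkgSd.{u}) : Core.{u} := by
  intro F _ _ V _ _ _ p _ _ hp2 Q hQ d hd hdim A hA hdet hord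
  classical
  have hpp : p.Prime := Fact.out
  obtain ⟨q, hq⟩ : ∃ q : ℕ, q = Fintype.card F := ⟨_, rfl⟩
  rw [← hq] at hord
  -- arithmetic
  have hpq : p ∣ q := by
    rw [hq, ← CharP.cast_eq_zero_iff F p]
    exact Nat.cast_card_eq_zero F
  have hp3 : 3 ≤ p := by
    have := hpp.two_le
    omega
  have hq0 : 0 < q := by rw [hq]; exact Fintype.card_pos
  have hq3 : 3 ≤ q := le_trans hp3 (Nat.le_of_dvd hq0 hpq)
  obtain ⟨r, hr, hr2, hrq, hrM, hrord⟩ := hZ q d hq3 hd
  obtain ⟨M, hM⟩ : ∃ M : ℕ, M = q ^ d + 1 := ⟨_, rfl⟩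
  rw [← hM] at hord hrM
  have hM0 : 0 < M := by rw [hM]; omega
  have hMp : Nat.Coprime M p := by
    rw [Nat.coprime_comm, Nat.Prime.coprime_iff_not_dvd hpp, hM]
    intro h
    have h1 : p ∣ q ^ d := Dvd.dvd.pow hpq (by omega)
    have h2 : p ∣ 1 := (Nat.dvd_add_right h1).mp h
    exact hpp.one_lt.ne' (Nat.dvd_one.mp h2)
  have h2F : (2 : F) ≠ 0 := by
    intro h
    have h1 : ((2 : ℕ) : F) = 0 := by exact_mod_cast h
    rw [CharP.cast_eq_zero_iff F p] at h1
    have := Nat.le_of_dvd (by norm_num) h1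
    omega
  have hrF : (r : F) ≠ 0 := by
    intro h
    rw [CharP.cast_eq_zero_iff F p] at h
    have := (Nat.prime_dvd_prime_iff_eq hpp hr).mp h
    rw [← this] at hrq
    exact hrq hpq
  obtain ⟨e, he⟩ := hrM
  have hAone : ∀ k : ℕ, p * M ∣ k → A ^ k = 1 := fun k hk => (hord k).mpr hk
  -- the element `x` of order `r`
  obtain ⟨x, hx⟩ : ∃ x : V →ₗ[F] V, x = A ^ (p * e) := ⟨_, rfl⟩
  have hxr : x ^ r = 1 := by
    rw [hx, ← pow_mul]
    apply hAone
    rw [he]
    exact ⟨1, by ring⟩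
  have hx1 : x ≠ 1 := by
    rw [hx]
    intro h
    have h1 := (hord _).mp h
    rw [he] at h1
    have he0 : 0 < e := by
      rcases Nat.eq_zero_or_pos e with h0 | h0
      · rw [h0, mul_zero] at he
        omega
      · exact h0
    have h2 := Nat.le_of_dvd (Nat.mul_pos hpp.pos he0) h1
    have h3 : p * e * 2 ≤ p * (r * e) := by
      have := hr.two_le
      calc p * e * 2 = p * (2 * e) := by ring
        _ ≤ p * (r * e) := Nat.mul_le_mul_left p (Nat.mul_le_mul_right e this)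
    have h4 : 0 < p * e := Nat.mul_pos hpp.pos he0
    omega
  have hxQ : ∀ v, Q (x v) = Q v := by
    rw [hx]
    exact pow_isom Q A hA _
  have hcomx : ∀ (a : ℕ) (v : V), (A ^ a) (x v) = x ((A ^ a) v) := by
    intro a v
    rw [hx]
    exact pow_comm_apply A a (p * e) v
  obtain ⟨W, V₁, hxW, hcompl, horth, hfix, hnofix, hcomm, hQW, hQV, hfW, hfV, hirr⟩ :=
    hS Q hQ r d hr hrF hd (by rw [← hq]; exact hrord) hdim x hxr hx1 hxQ
  have hinvW : ∀ a : ℕ, ∀ w ∈ W, (A ^ a) w ∈ W := fun a => (hcomm (A ^ a) (hcomx a)).1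
  have hinvV : ∀ a : ℕ, ∀ v ∈ V₁, (A ^ a) v ∈ V₁ := fun a => (hcomm (A ^ a) (hcomx a)).2
  have hAW : ∀ w ∈ W, A w ∈ W := by
    have := hinvW 1
    rwa [pow_one] at this
  -- the restriction of `x` to `W`
  obtain ⟨xW, hxWdef⟩ : ∃ xW : W →ₗ[F] W, xW = x.restrict hxW := ⟨_, rfl⟩
  rw [← hxWdef] at hirr
  have hxWapp : ∀ w : W, ((xW w : W) : V) = x (w : V) := fun w => by rw [hxWdef]; rfl
  have hxWQ : ∀ w : W, (Q.restrict W) (xW w) = (Q.restrict W) w := by
    intro w
    show Q ((xW w : W) : V) = Q (w : V)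
    rw [hxWapp, hxQ]
  have hcomW : ∀ (t : V →ₗ[F] V) (ht : ∀ w ∈ W, t w ∈ W), (∀ v, t (x v) = x (t v)) →
      t.restrict ht * xW = xW * t.restrict ht := by
    intro t ht htx
    apply LinearMap.ext
    intro w
    apply Subtype.ext
    rw [Module.End.mul_apply, Module.End.mul_apply, hxWapp]
    show t ((xW w : W) : V) = x (t (w : V))
    rw [hxWapp, htx]
  have hxx : xW * xW ≠ 1 := by
    intro h
    have hsq : ∀ w : W, x (x (w : V)) = (w : V) := by
      intro w
      have h1 := congrArg (fun f : W →ₗ[F] W => ((f w : W) : V)) h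
      simp only [Module.End.mul_apply, Module.End.one_apply] at h1
      rw [hxWapp, hxWapp] at h1
      exact h1
    have hpow : ∀ (k : ℕ) (w : W), (x ^ (2 * k)) (w : V) = (w : V) := by
      intro k
      induction k with
      | zero => intro w; simp
      | succ k ih =>
        intro w
        have e1 : 2 * (k + 1) = 2 * k + 1 + 1 := by ring
        rw [e1, pow_succ, pow_succ, Module.End.mul_apply, Module.End.mul_apply]
        have h2 : x (w : V) = ((xW w : W) : V) := (hxWapp w).symm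
        have h3 : x (x (w : V)) = ((xW (xW w) : W) : V) := by rw [hxWapp, hxWapp]
        rw [h3, ih, ← h3, hsq]
    obtain ⟨k, hk⟩ := hr.odd_of_ne_two hr2
    obtain ⟨w, hw⟩ := hirr.1
    apply hw
    apply Subtype.ext
    apply hnofix (w : V) w.2
    have h1 : (x ^ r) (w : V) = (w : V) := by rw [hxr]; rfl
    rw [hk, pow_succ', Module.End.mul_apply, hpow k w] at h1
    exact h1
  -- `A` on `W`
  have hAWQ : ∀ (a : ℕ) (w : W),
      (Q.restrict W) ((A ^ a).restrict (hinvW a) w) = (Q.restrict W) w := by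
    intro a w
    show Q ((A ^ a) (w : V)) = Q (w : V)
    exact pow_isom Q A hA a _
  have hAM : ∀ w ∈ W, (A ^ M) w = w := by
    have h1 := hE (Q.restrict W) h2F hQW d hfW xW hirr hxWQ hxx ((A ^ 1).restrict (hinvW 1))
      (hcomW _ _ (hcomx 1)) (hAWQ 1)
    rw [← hq, ← hM, restrict_pow_eq_one_iff] at h1
    intro w hw
    have := h1 w hw
    rwa [pow_one] at this
  -- the unipotent part on `V₁`
  obtain ⟨u₁, hu₁⟩ : ∃ u₁ : V₁ →ₗ[F] V₁, u₁ = (A ^ M).restrict (hinvV M) := ⟨_, rfl⟩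
  obtain ⟨s₁, hs₁⟩ : ∃ s₁ : V₁ →ₗ[F] V₁, s₁ = (A ^ p).restrict (hinvV p) := ⟨_, rfl⟩
  have hu₁Q : ∀ v : V₁, (Q.restrict V₁) (u₁ v) = (Q.restrict V₁) v := by
    intro v
    rw [hu₁]
    show Q ((A ^ M) (v : V)) = Q (v : V)
    exact pow_isom Q A hA M _
  have hs₁Q : ∀ v : V₁, (Q.restrict V₁) (s₁ v) = (Q.restrict V₁) v := by
    intro v
    rw [hs₁]
    show Q ((A ^ p) (v : V)) = Q (v : V)
    exact pow_isom Q A hA p _
  have hu₁p : u₁ ^ p = 1 := by
    rw [hu₁, restrict_pow_eq_one_iff]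
    intro v _
    rw [← pow_mul, hAone (M * p) ⟨1, by ring⟩]
    rfl
  have hu₁1 : u₁ ≠ 1 := by
    intro h
    have h1 : A ^ M = 1 := by
      apply eq_of_isCompl W V₁ hcompl
      · intro w hw
        rw [hAM w hw]
        rfl
      · intro v hv
        have h2 := congrArg (fun f : V₁ →ₗ[F] V₁ => ((f ⟨v, hv⟩ : V₁) : V)) h
        simp only [Module.End.one_apply] at h2
        rw [hu₁] at h2
        exact h2
    have h3 := Nat.le_of_dvd hM0 ((hord M).mp h1)
    have h4 : 2 * M ≤ p * M := Nat.mul_le_mul_right M hpp.two_le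
    omega
  have hsu : s₁ * u₁ = u₁ * s₁ := by
    apply LinearMap.ext
    intro v
    apply Subtype.ext
    rw [hs₁, hu₁]
    show (A ^ p) ((A ^ M) (v : V)) = (A ^ M) ((A ^ p) (v : V))
    exact pow_comm_apply A p M _
  have hs₁M : s₁ ^ M = 1 := by
    rw [hs₁, restrict_pow_eq_one_iff]
    intro v _
    rw [← pow_mul, hAone (p * M) dvd_rfl]
    rfl
  have hs₁pm := hO p hp2 (Q.restrict V₁) hQV hfV u₁ s₁ M hu₁Q hs₁Q hu₁p hu₁1 hsu hMp hs₁M
  -- the determinant
  obtain ⟨hW, hhW⟩ : ∃ hW : W →ₗ[F] W, hW = (A ^ p).restrict (hinvW p) := ⟨_, rfl⟩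
  have hhcom : hW * xW = xW * hW := by
    rw [hhW]
    exact hcomW _ _ (hcomx p)
  have hhM : hW ^ M = 1 := by
    rw [hhW, restrict_pow_eq_one_iff]
    intro w _
    rw [← pow_mul, hAone (p * M) dvd_rfl]
    rfl
  have hdethW : LinearMap.det hW = 1 := by
    apply hD d hfW xW hirr hW hhcom
    rw [← hq, ← hM]
    exact hhM
  have hdetAp : LinearMap.det (A ^ p) = 1 := by rw [map_pow, hdet, one_pow]
  have hsum := hDS W V₁ hcompl (A ^ p) (hinvW p) (hinvV p)
  rw [hdetAp, ← hhW, ← hs₁, hdethW, one_mul] at hsum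
  have hs₁1 : s₁ = 1 := by
    rcases hs₁pm with h | h
    · exact h
    · exfalso
      rw [h] at hsum
      have h1 : (-1 : V₁ →ₗ[F] V₁) = (-1 : F) • (1 : V₁ →ₗ[F] V₁) := by
        apply LinearMap.ext
        intro v
        simp
      rw [h1, LinearMap.det_smul, hfV, map_one] at hsum
      apply h2F
      linear_combination hsum
  have hAp1 : ∀ (k : ℕ), ∀ v ∈ V₁, ((A ^ p) ^ k) v = v := by
    intro k
    have h1 : s₁ ^ k = 1 := by rw [hs₁1, one_pow]
    rw [hs₁, restrict_pow_eq_one_iff] at h1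
    exact h1
  -- the exact order of `hW`
  have hhord : ∀ k : ℕ, hW ^ k = 1 ↔ M ∣ k := by
    intro k
    rw [hhW, restrict_pow_eq_one_iff]
    constructor
    · intro h
      have h1 : (A ^ p) ^ k = 1 := by
        apply eq_of_isCompl W V₁ hcompl
        · intro w hw
          rw [h w hw]
          rfl
        · intro v hv
          rw [hAp1 k v hv]
          rfl
      rw [← pow_mul] at h1
      exact Nat.dvd_of_mul_dvd_mul_left hpp.pos ((hord _).mp h1)
    · rintro ⟨c, rfl⟩ w _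
      rw [← pow_mul, hAone (p * (M * c)) ⟨c, by ring⟩]
      rfl
  -- the element outside `Ω`
  have hStd : Cfsg.Agent.Lib.Helper8.OFus.Std (Q.restrict W) r xW :=
    { two := h2F
      nondeg := hQW
      odd := hr.odd_of_ne_two hr2
      ne := hrF
      pow := by
        rw [hxWdef, restrict_pow_eq_one_iff]
        intro w _
        rw [hxr]
        rfl
      isom := hxWQ }
  have hIrr : Cfsg.Agent.Lib.Helper8.WallBasic.Irr xW ⊤ := by
    refine ⟨?_, fun _ _ => Submodule.mem_top, fun U₀ _ hU₀ => hirr.2 U₀ hU₀⟩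
    obtain ⟨w, hw⟩ := hirr.1
    intro h
    apply hw
    have : w ∈ (⊤ : Submodule F W) := Submodule.mem_top
    rw [h, Submodule.mem_bot] at this
    exact this
  have hnf : ∀ v : W, xW v = v → v = 0 := by
    intro v hv
    apply Subtype.ext
    apply hnofix (v : V) v.2
    rw [← hxWapp, hv]
  obtain ⟨l, hl, hlen, hnsq, hcl⟩ := hSd (Q.restrict W) r xW hStd hIrr hnf
  obtain ⟨cW, hcW⟩ : ∃ cW : W →ₗ[F] W, cW = (l.map (reflLin (Q.restrict W))).prod := ⟨_, rfl⟩
  rw [← hcW] at hcl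
  have hcQ : ∀ v : W, (Q.restrict W) (cW v) = (Q.restrict W) v := by
    intro v
    rw [hcW]
    exact prod_refl_isometry (Q.restrict W) l hl v
  have hccom : cW * xW = xW * cW := by
    apply LinearMap.ext
    intro v
    rw [Module.End.mul_apply, Module.End.mul_apply]
    exact hcl v
  have hcM : cW ^ M = 1 := by
    have h1 := hE (Q.restrict W) h2F hQW d hfW xW hirr hxWQ hxx cW hccom hcQ
    rwa [← hq, ← hM] at h1
  obtain ⟨j, hj⟩ := hC xW hirr M hW cW hM0 hhcom hccom hhord hcM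
  refine ⟨p * j, l.map Subtype.val, ?_, ?_, ?_, ?_⟩
  · intro u hu
    obtain ⟨w, hw, rfl⟩ := List.mem_map.mp hu
    exact hl w hw
  · rw [List.length_map]
    exact hlen
  · rw [List.map_map]
    exact hnsq
  · apply eq_of_isCompl W V₁ hcompl
    · intro w hw
      have h1 := prod_refl_extend Q W l ⟨w, hw⟩
      rw [← hcW, hj, hhW, restrict_pow_apply] at h1
      rw [pow_mul]
      exact h1
    · intro v hv
      rw [pow_mul, hAp1 j v hv]
      apply prod_refl_fix
      intro u hu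
      obtain ⟨w, _, rfl⟩ := List.mem_map.mp hu
      exact horth (w : V) w.2 v hv

end Cfsg.Agent.Lib.Helper14.Spec
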